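import Cfsg.Agent.Lib.Helper48.E27.Defs
import Cfsg.Agent.Lib.Helper50.SUCard
import Cfsg.Agent.Lib.Helper50.GUFrames

set_option autoImplicit false

namespace Cfsg.Agent.Lib.Helper48.E27U

open Cfsg Cfsg.Geo Cfsg.Agent.Lib.Helper77.Asch
open scoped MatrixGroups

variable {F : Type*} [Field F]

theorem idxu_arith (m c : ℕ) (h81 : 81 ∣ c)
    (h : (3 * m + 2 + 1) * c = (3 * m + 2) ^ 3 * ((3 * m + 2 + 1) * ((3 * m + 2) ^ 2 - 1) * ((3 * m + 2) ^ 3 + 1))) :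
    3 ∣ m + 1 := by
  have e1 : (3 * m + 2) ^ 2 - 1 = 3 * (m + 1) * (3 * m + 1) := by
    apply Nat.sub_eq_of_eq_add; ring
  rw [e1] at h
  have h' : c = 27 * ((m + 1) ^ 2 * ((3 * m ^ 2 + 3 * m + 1) * ((3 * m + 2) ^ 3 * (3 * m + 1)))) := by
    have h3m : 0 < 3 * m + 2 + 1 := by omega
    apply Nat.eq_of_mul_eq_mul_left h3m
    rw [h]; ring
  rw [h'] at h81
  have h3 : 3 ∣ (m + 1) ^ 2 * ((3 * m ^ 2 + 3 * m + 1) * ((3 * m + 2) ^ 3 * (3 * m + 1))) := by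
    have : 27 * 3 ∣ 27 * ((m + 1) ^ 2 * ((3 * m ^ 2 + 3 * m + 1) * ((3 * m + 2) ^ 3 * (3 * m + 1)))) := h81
    exact Nat.dvd_of_mul_dvd_mul_left (by norm_num) this
  have p3 : Nat.Prime 3 := Nat.prime_three
  rcases (Nat.Prime.dvd_mul p3).mp h3 with h | h
  · exact p3.dvd_of_dvd_pow h
  rcases (Nat.Prime.dvd_mul p3).mp h with h | h
  · exfalso
    have : 3 * m ^ 2 + 3 * m + 1 = 3 * (m ^ 2 + m) + 1 := by ring
    omega
  rcases (Nat.Prime.dvd_mul p3).mp h with h | h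
  · have := p3.dvd_of_dvd_pow h
    omega
  · omega

/-- RUNG IDXU: 3 divides the index of N(R) ∩ SU_3(p) only if p ≡ 8 mod 9.
(S := GU ⊓ SL.  R ≤ N(R) ⊓ S so 27 ∣ |N ⊓ S| and 81 ∣ |S| (relIndex * card (N ⊓ S) = card S, cf. E27/IDX.lean).
|S| = card (detGU 3).ker [S = map of that kernel under GU.subtype] = card (SU 3 F p) (`Herm.card_ker_detGU`),
(p+1) * card SU = card GU (`Herm.card_SU`), card GU = p^3 (p+1)(p^2-1)(p^3+1) (`Herm.card_GU`).
So 81 (p+1) ∣ p^3 (p+1)(p^2-1)(p^3+1), i.e. 81 ∣ p^3 (p^2-1)(p^3+1); false for p % 9 = 2, 5 (decide in ZMod 81 or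
p % 81 cases).  Model: E27/IDX.lean (helper36).) -/
theorem idxu [Fintype F] {p : ℕ} (hF : Fintype.card F = p ^ 2) (hp3 : p % 3 = 2)
    (R : Subgroup (GL (Fin 3) F)) (hR : Nat.card R = 27)
    (hRS : R ≤ Cfsg.GU 3 F p ⊓ specialLinear (Fin 3) F)
    (h : 3 ∣ (subgroupNormalizer R).relIndex (Cfsg.GU 3 F p ⊓ specialLinear (Fin 3) F)) : p % 9 = 8 := by
  classical
  obtain ⟨m, hm⟩ : ∃ m, p = 3 * m + 2 := ⟨p / 3, by omega⟩
  obtain ⟨S, hSdef⟩ : ∃ S : Subgroup (GL (Fin 3) F), S = Cfsg.GU 3 F p ⊓ specialLinear (Fin 3) F := ⟨_, rfl⟩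
  rw [← hSdef] at h hRS
  have hN : R ≤ subgroupNormalizer R ⊓ S := le_inf Subgroup.le_normalizer hRS
  have h27 : 27 ∣ Nat.card (subgroupNormalizer R ⊓ S : Subgroup _) :=
    hR ▸ Subgroup.card_dvd_of_le hN
  have hmul := Subgroup.relIndex_mul_relIndex ⊥ (subgroupNormalizer R ⊓ S) S bot_le inf_le_right
  rw [Subgroup.relIndex_bot_left, Subgroup.relIndex_bot_left, Subgroup.inf_relIndex_right] at hmul
  have h81 : 81 ∣ Nat.card S := by
    rw [← hmul]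
    exact Nat.mul_dvd_mul h27 h
  have hS : Nat.card S = Nat.card (Cfsg.Agent.Lib.Helper50.Herm.detGU (K := F) (q := p) 3).ker := by
    have h1 : S = (Cfsg.Agent.Lib.Helper50.Herm.detGU (K := F) (q := p) 3).ker.map (Cfsg.GU 3 F p).subtype := by
      rw [hSdef]
      ext g
      constructor
      · rintro ⟨hgU, hgS⟩
        exact ⟨⟨g, hgU⟩, hgS, rfl⟩
      · rintro ⟨⟨g', hg'⟩, hk, rfl⟩
        exact ⟨hg', hk⟩
    rw [h1]
    exact Subgroup.card_map_of_injective (Subgroup.subtype_injective _)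
  have h1 := Cfsg.Agent.Lib.Helper50.Herm.card_SU hF 3 (by norm_num)
  rw [← Cfsg.Agent.Lib.Helper50.Herm.card_ker_detGU, ← hS, Cfsg.Agent.Lib.Helper50.Herm.card_GU hF 3] at h1
  simp only [Finset.prod_range_succ, Finset.prod_range_zero, one_mul] at h1
  norm_num at h1
  rw [hm] at h1
  have h2 := idxu_arith m _ h81 (by
    rw [Nat.card_eq_fintype_card, h1])
  omega

end Cfsg.Agent.Lib.Helper48.E27U
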