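import Cfsg.Agent.Lib.Helper48.E27.Defs
import Cfsg.Agent.Lib.Helper77.Asch.HCM
import Cfsg.Agent.Lib.Helper50.GUConj
import Cfsg.Agent.Lib.Helper50.SUDet2

set_option autoImplicit false

namespace Cfsg.Agent.Lib.Helper48.E27U

open Cfsg Cfsg.Geo Cfsg.Agent.Lib.Helper77.Asch
open Cfsg.Agent.Lib.Helper50.GUConj (dag dag_mul dag_one dag_dag dag_apply mem_GU_iff_dag)
open scoped MatrixGroups

variable {F : Type*} [Field F]

/-- the commutation step of NSU. -/
theorem nsu_comm [Fintype F] {p : ℕ} (hF : Fintype.card F = p ^ 2)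
    (R : Subgroup (GL (Fin 3) F)) (hRU : R ≤ Cfsg.GU 3 F p) (k : GL (Fin 3) F) (hk : k ∈ R)
    (h : GL (Fin 3) F) (hN : h ∈ subgroupNormalizer R) :
    (dag hF (h : Matrix (Fin 3) (Fin 3) F) * (h : Matrix (Fin 3) (Fin 3) F)) *
        (k : Matrix (Fin 3) (Fin 3) F) =
      (k : Matrix (Fin 3) (Fin 3) F) *
        (dag hF (h : Matrix (Fin 3) (Fin 3) F) * (h : Matrix (Fin 3) (Fin 3) F)) := by
  have hk' : h * k * h⁻¹ ∈ R := (Subgroup.mem_normalizer_iff.1 hN k).1 hk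
  have u1 := (mem_GU_iff_dag hF k).1 (hRU hk)
  have u2 := (mem_GU_iff_dag hF (h * k * h⁻¹)).1 (hRU hk')
  have u1' : (k : Matrix (Fin 3) (Fin 3) F) * dag hF (k : Matrix (Fin 3) (Fin 3) F) = 1 :=
    mul_eq_one_comm.1 u1
  have e0 : ((h * k * h⁻¹ : GL (Fin 3) F) : Matrix (Fin 3) (Fin 3) F) *
      (h : Matrix (Fin 3) (Fin 3) F) =
      (h : Matrix (Fin 3) (Fin 3) F) * (k : Matrix (Fin 3) (Fin 3) F) := by
    rw [← Units.val_mul, ← Units.val_mul]
    congr 1
    group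
  -- `dag k * A * k = A`
  have e1 : dag hF (k : Matrix (Fin 3) (Fin 3) F) *
      (dag hF (h : Matrix (Fin 3) (Fin 3) F) * (h : Matrix (Fin 3) (Fin 3) F)) *
        (k : Matrix (Fin 3) (Fin 3) F) =
      dag hF (h : Matrix (Fin 3) (Fin 3) F) * (h : Matrix (Fin 3) (Fin 3) F) := by
    calc dag hF (k : Matrix (Fin 3) (Fin 3) F) *
      (dag hF (h : Matrix (Fin 3) (Fin 3) F) * (h : Matrix (Fin 3) (Fin 3) F)) *
        (k : Matrix (Fin 3) (Fin 3) F)
        = dag hF ((h : Matrix (Fin 3) (Fin 3) F) * (k : Matrix (Fin 3) (Fin 3) F)) *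
          ((h : Matrix (Fin 3) (Fin 3) F) * (k : Matrix (Fin 3) (Fin 3) F)) := by
          rw [dag_mul]; simp only [mul_assoc]
      _ = dag hF (h : Matrix (Fin 3) (Fin 3) F) *
          (dag hF ((h * k * h⁻¹ : GL (Fin 3) F) : Matrix (Fin 3) (Fin 3) F) *
            ((h * k * h⁻¹ : GL (Fin 3) F) : Matrix (Fin 3) (Fin 3) F)) *
            (h : Matrix (Fin 3) (Fin 3) F) := by
          rw [← e0, dag_mul]; simp only [mul_assoc]
      _ = _ := by rw [u2, mul_one]
  calc (dag hF (h : Matrix (Fin 3) (Fin 3) F) * (h : Matrix (Fin 3) (Fin 3) F)) *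
        (k : Matrix (Fin 3) (Fin 3) F)
      = ((k : Matrix (Fin 3) (Fin 3) F) * dag hF (k : Matrix (Fin 3) (Fin 3) F)) *
        ((dag hF (h : Matrix (Fin 3) (Fin 3) F) * (h : Matrix (Fin 3) (Fin 3) F)) *
        (k : Matrix (Fin 3) (Fin 3) F)) := by rw [u1', one_mul]
    _ = (k : Matrix (Fin 3) (Fin 3) F) * (dag hF (k : Matrix (Fin 3) (Fin 3) F) *
      (dag hF (h : Matrix (Fin 3) (Fin 3) F) * (h : Matrix (Fin 3) (Fin 3) F)) *
        (k : Matrix (Fin 3) (Fin 3) F)) := by simp only [mul_assoc]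
    _ = _ := by rw [e1]

theorem nsu [Fintype F] {p : ℕ} (hF : Fintype.card F = p ^ 2) (hp3 : p % 3 = 2)
    (R : Subgroup (GL (Fin 3) F)) (hRU : R ≤ Cfsg.GU 3 F p) (x y : GL (Fin 3) F) (w : Fˣ)
    (hx : x ^ 3 = 1) (hy : y ^ 3 = 1) (hw : orderOf w = 3) (hc : x * y = sc w * (y * x))
    (hxR : x ∈ R) (hyR : y ∈ R) (h : GL (Fin 3) F) (hN : h ∈ subgroupNormalizer R)
    (hd : (h : Matrix (Fin 3) (Fin 3) F).det = 1) : h ∈ Cfsg.GU 3 F p := by
  let D : GL (Fin 3) F := ⟨dag hF (h : Matrix (Fin 3) (Fin 3) F),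
    dag hF ((h⁻¹ : GL (Fin 3) F) : Matrix (Fin 3) (Fin 3) F),
    by rw [← dag_mul, ← Units.val_mul, inv_mul_cancel, Units.val_one, dag_one],
    by rw [← dag_mul, ← Units.val_mul, mul_inv_cancel, Units.val_one, dag_one]⟩
  have hA : ((D * h : GL (Fin 3) F) : Matrix (Fin 3) (Fin 3) F) =
      dag hF (h : Matrix (Fin 3) (Fin 3) F) * (h : Matrix (Fin 3) (Fin 3) F) := rfl
  have c1 : (D * h) * x = x * (D * h) := by
    apply Units.ext
    exact nsu_comm hF R hRU x hxR h hN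
  have c2 : (D * h) * y = y * (D * h) := by
    apply Units.ext
    exact nsu_comm hF R hRU y hyR h hN
  have hs := heis_commutant (by norm_num) x y w hx hy hw hc (D * h) c1 c2
  obtain ⟨c, hcA⟩ := (mem_scalars_iff _).1 hs
  rw [hA] at hcA
  -- `c ^ p = c`
  have k1 : (c : F) ^ p = c := by
    have e1 : dag hF (dag hF (h : Matrix (Fin 3) (Fin 3) F) * (h : Matrix (Fin 3) (Fin 3) F)) =
        dag hF (h : Matrix (Fin 3) (Fin 3) F) * (h : Matrix (Fin 3) (Fin 3) F) := by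
      rw [dag_mul, dag_dag]
    have e2 := congrFun (congrFun e1 0) 0
    rw [dag_apply, hcA] at e2
    simpa using e2
  -- `c ^ 3 = 1`
  have k2 : (c : F) ^ 3 = 1 := by
    have e1 := congrArg Matrix.det hcA
    rw [Matrix.det_mul, hd, mul_one, Matrix.det_smul, Matrix.det_one, mul_one, Fintype.card_fin] at e1
    rw [← e1]
    unfold dag
    rw [Matrix.det_transpose]
    have e3 := RingHom.map_det (Cfsg.Agent.Lib.Helper50.Herm.frobQ hF : F →+* F)
      (h : Matrix (Fin 3) (Fin 3) F)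
    rw [hd, map_one] at e3
    exact e3.symm
  have hc1 : c = 1 := by
    have q1 : c ^ (p - 1) = 1 := by
      apply Units.ext
      rw [Units.val_pow_eq_pow_val, Units.val_one]
      have hp : p = (p - 1) + 1 := by omega
      rw [hp, pow_succ] at k1
      have hc0 : (c : F) ≠ 0 := c.ne_zero
      exact mul_right_cancel₀ hc0 (by rw [k1, one_mul])
    have q2 : c ^ 3 = 1 := by
      apply Units.ext
      rw [Units.val_pow_eq_pow_val, Units.val_one, k2]
    have q3 := pow_gcd_eq_one.2 ⟨q1, q2⟩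
    have hg : Nat.gcd (p - 1) 3 = 1 := by
      have : Nat.Coprime (p - 1) 3 := by
        rw [Nat.coprime_comm, Nat.Prime.coprime_iff_not_dvd (by norm_num)]
        omega
      exact this
    rwa [hg, pow_one] at q3
  rw [mem_GU_iff_dag hF, hcA, hc1]
  simp

end Cfsg.Agent.Lib.Helper48.E27U
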