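import Cfsg.Agent.Lib.Helper48.E27.Defs
import Cfsg.Agent.Lib.Helper50.SUConj

set_option autoImplicit false

namespace Cfsg.Agent.Lib.Helper48.E27U

open Cfsg Cfsg.Geo Cfsg.Agent.Lib.Helper77.Asch
open scoped MatrixGroups

variable {F : Type*} [Field F]

/-- RUNG UFIN: translation of `Helper50.SUDet.conj_SU` to GL-elements of `GU ⊓ SL`.
(x, h give elements of `Cfsg.SU 3 F p` (a subgroup of `Matrix.SpecialLinearGroup`): ⟨⟨x.1, det = 1⟩, preserving⟩,
membership in SU is definitionally the same `∀ u v` statement as membership in GU, see the proof of `conj_SU`/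
`card_ker_detGU`.  Their orders divide e, which is coprime to p.  `conj_SU` gives c with c * x * c⁻¹ = h; take
g = toGL c⁻¹.) -/
theorem ufin [Fintype F] {p : ℕ} [Fact p.Prime] [CharP F p] (hF : Fintype.card F = p ^ 2)
    (x h : GL (Fin 3) F) (hx : x ∈ Cfsg.GU 3 F p ⊓ specialLinear (Fin 3) F)
    (hh : h ∈ Cfsg.GU 3 F p ⊓ specialLinear (Fin 3) F) (e : ℕ) (he : e.Coprime p)
    (hxe : x ^ e = 1) (hhe : h ^ e = 1)
    (hc : (x : Matrix (Fin 3) (Fin 3) F).charpoly = (h : Matrix (Fin 3) (Fin 3) F).charpoly) :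
    ∃ g ∈ Cfsg.GU 3 F p ⊓ specialLinear (Fin 3) F, g⁻¹ * x * g = h := by
  have hdet : ∀ a : GL (Fin 3) F, a ∈ specialLinear (Fin 3) F → (a : Matrix (Fin 3) (Fin 3) F).det = 1 := by
    intro a ha
    have h1 : Matrix.GeneralLinearGroup.det a = 1 := ha
    rw [Units.ext_iff, Matrix.GeneralLinearGroup.val_det_apply, Units.val_one] at h1
    exact h1
  obtain ⟨xs, hxs⟩ : ∃ xs : Matrix.SpecialLinearGroup (Fin 3) F, Matrix.SpecialLinearGroup.toGL xs = x :=
    ⟨⟨x.1, hdet x hx.2⟩, Units.ext rfl⟩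
  obtain ⟨hs, hhs⟩ : ∃ hs : Matrix.SpecialLinearGroup (Fin 3) F, Matrix.SpecialLinearGroup.toGL hs = h :=
    ⟨⟨h.1, hdet h hh.2⟩, Units.ext rfl⟩
  have hinj : Function.Injective
      (Matrix.SpecialLinearGroup.toGL : Matrix.SpecialLinearGroup (Fin 3) F →* GL (Fin 3) F) := by
    intro a b hab
    apply Subtype.ext
    exact congrArg Units.val hab
  have hxsU : xs ∈ Cfsg.SU 3 F p := by
    have h1 := hx.1
    rw [← hxs] at h1
    exact fun u v => h1 u v
  have hhsU : hs ∈ Cfsg.SU 3 F p := by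
    have h1 := hh.1
    rw [← hhs] at h1
    exact fun u v => h1 u v
  have hXe : (⟨xs, hxsU⟩ : ↥(Cfsg.SU 3 F p)) ^ e = 1 := by
    apply Subtype.ext
    apply hinj
    show Matrix.SpecialLinearGroup.toGL (xs ^ e) = Matrix.SpecialLinearGroup.toGL 1
    rw [map_pow, hxs, hxe, map_one]
  have hHe : (⟨hs, hhsU⟩ : ↥(Cfsg.SU 3 F p)) ^ e = 1 := by
    apply Subtype.ext
    apply hinj
    show Matrix.SpecialLinearGroup.toGL (hs ^ e) = Matrix.SpecialLinearGroup.toGL 1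
    rw [map_pow, hhs, hhe, map_one]
  have hcon := Cfsg.Agent.Lib.Helper50.SUDet.conj_SU hF p 3 ⟨xs, hxsU⟩ ⟨hs, hhsU⟩
    (Nat.Coprime.coprime_dvd_left (orderOf_dvd_of_pow_eq_one hXe) he)
    (Nat.Coprime.coprime_dvd_left (orderOf_dvd_of_pow_eq_one hHe) he)
    (by
      have e1 : (xs : Matrix (Fin 3) (Fin 3) F) = (x : Matrix (Fin 3) (Fin 3) F) := by rw [← hxs]; rfl
      have e2 : (hs : Matrix (Fin 3) (Fin 3) F) = (h : Matrix (Fin 3) (Fin 3) F) := by rw [← hhs]; rfl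
      show (xs : Matrix (Fin 3) (Fin 3) F).charpoly = (hs : Matrix (Fin 3) (Fin 3) F).charpoly
      rw [e1, e2, hc])
  obtain ⟨c, hc'⟩ := isConj_iff.1 hcon
  have h2 : Matrix.SpecialLinearGroup.toGL c.1 * x * (Matrix.SpecialLinearGroup.toGL c.1)⁻¹ = h := by
    have h3 := congrArg (fun a : ↥(Cfsg.SU 3 F p) => Matrix.SpecialLinearGroup.toGL a.1) hc'
    simp only [Subgroup.coe_mul, Subgroup.coe_inv, map_mul, map_inv, hxs, hhs] at h3
    exact h3
  refine ⟨(Matrix.SpecialLinearGroup.toGL c.1)⁻¹, Subgroup.inv_mem _ ⟨fun u v => c.2 u v, ?_⟩, ?_⟩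
  · show Matrix.GeneralLinearGroup.det (Matrix.SpecialLinearGroup.toGL c.1) = 1
    apply Units.ext
    rw [Matrix.GeneralLinearGroup.val_det_apply, Units.val_one]
    exact c.1.2
  · rw [inv_inv]
    exact h2

end Cfsg.Agent.Lib.Helper48.E27U
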